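import Cfsg.Agent.Lib.DCE.Ly.Inv3.N2
import Cfsg.Agent.Lib.DCE.Ly.Inv3.N3
import Cfsg.Agent.Lib.DCE.Ly.Inv3.N4
import Cfsg.Agent.Lib.DCE.Ly.Inv3.Cls
import Cfsg.Agent.Lib.DCE.Ly.Inv3.FixK

/-! The bound for the order of the centraliser of the element of order three. -/

namespace Cfsg.Agent.Lib.DCE.Ly.Inv3.Count

open Cfsg.Agent.Lib.TC.Core Cfsg.Agent.Lib.TC.Pres Cfsg.Agent.Lib.TC.Perm Cfsg.Agent.Lib.TC.Main
  Cfsg.Agent.Lib.TC.Chain Cfsg.Agent.Lib.TC.Iso Cfsg.Agent.Lib.DCE.MatP Cfsg.Agent.Lib.DCE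
  Cfsg.Agent.Lib.DCE.Ly.Exp Cfsg.Agent.Lib.DCE.Ly.Setup Cfsg.Agent.Lib.DCE.Ly.Rules Cfsg.Agent.Lib.DCE.Ly.Gens
  Cfsg.Agent.Lib.DCE.Ly.Cov.Beta Cfsg.Agent.Lib.DCE.Orb Cfsg.Agent.Lib.DCE.Ly.Cov.Base
  Cfsg.Agent.Lib.DCE.Ly.Cov.Bound Cfsg.Agent.Lib.DCE.Ly.Final Cfsg.Agent.Lib.DCE.Ly.Inv.Defs
  Cfsg.Agent.Lib.DCE.Ly.Inv.Count Cfsg.Agent.Lib.DCE.Ly.Inv3.Defs

set_option maxRecDepth 100000

theorem x3_cube : x3 * x3 * x3 = 1 := by
  have h : wEq (x3w ++ (x3w ++ x3w)) [] = true := by decide +kernel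
  have h2 := prodA_EQ_eq h
  rw [prodA_append, prodA_append] at h2
  rw [mul_assoc]
  exact h2

theorem x3_ne : x3 ≠ 1 :=
  word_ne_one okQ x3w (by decide +kernel) 3 (by decide +kernel) (by decide +kernel)

theorem x3_lt : lt10 x3w = true := by decide +kernel

/-- The element fixes a point. -/
theorem x3_fix : ∃ p : Fin ptQ.n, phi x3 p = p := by
  have h1 : (0 : Nat) < ptQ.n := by decide +kernel
  refine ⟨⟨0, h1⟩, Fin.ext ?_⟩
  rw [x3, phi_val x3w x3_lt]
  have h2 : ptQ.val x3w 0 = 0 := by decide +kernel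
  exact h2

/-- An element without fixed points is not conjugate to the element. -/
theorem not_conj_of_free {y : Q} (h : ∀ p : Fin ptQ.n, phi y p ≠ p) : ¬ IsConj x3 y := by
  intro hc
  obtain ⟨g, rfl⟩ := isConj_iff.1 hc
  obtain ⟨p, hp⟩ := x3_fix
  apply h (phi g p)
  rw [map_mul, map_mul, map_inv, Equiv.Perm.mul_apply, Equiv.Perm.mul_apply, show (phi g)⁻¹ (phi g p) = p by simp, hp]

section list

variable {gs : List (List Nat)} {ws : Nat → List Nat} {pi : Nat → Nat → Nat} {m iN : Nat}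
  {cert : Nat → Nat} {reps : List (List Nat)} {A : List Nat}

theorem conj_le3 (hall : ∀ i, i < m → chkEl gs ws pi m i = true) (hid : ws iN = []) (hiN : iN < m)
    (hlt : ∀ l ∈ gs, lt10 l = true) (hinv : ∀ l ∈ gs, invW invQ l ∈ gs) (hne : 0 < gs.length)
    (hX : ∀ i, i < m → chkX ws cert reps A iN i = true)
    (hfree : ∀ r, r < 3 → lt10 (reps.getD r []) = true ∧
      allN (fun p => Bool.not (Nat.beq (ptQ.val (reps.getD r []) p) p)) 3906 = true)
    (T : Subgroup Q) (hT : T ≤ subOf KQ RQ gs) : Nat.card (conjIn T x3) ≤ A.length := by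
  classical
  have hws : ∀ i, i < m → lt10 (ws i) = true := by
    intro i hi
    have h : andB (Nat.blt (pi 0 i) m) (wEq (ws i ++ gs.getD 0 []) (ws (pi 0 i))) = true :=
      allN_spec (hall i hi) 0 hne
    rw [andB_eq_true, wEq, andB_eq_true] at h
    exact lt10_left h.2.1
  have key : ∀ y : conjIn T x3, ∃ i : A.toFinset, y.1 = prodA EQ (ws i.1) := by
    rintro ⟨y, hyT, hy⟩
    obtain ⟨i, hi, e⟩ := list_cover hall hid hiN hlt hinv y (hT hyT)
    have hc := hX i hi
    unfold chkX at hc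
    cases h0 : Nat.beq (cert i) 0 with
    | true =>
      exfalso
      rw [h0] at hc
      obtain ⟨g, rfl⟩ := isConj_iff.1 hy
      have hcube : (g * x3 * g⁻¹) * ((g * x3 * g⁻¹) * (g * x3 * g⁻¹)) = 1 := by
        have e1 : (g * x3 * g⁻¹) * ((g * x3 * g⁻¹) * (g * x3 * g⁻¹)) = g * (x3 * x3 * x3) * g⁻¹ := by group
        rw [e1, x3_cube]
        group
      have hne1 : g * x3 * g⁻¹ ≠ 1 := by
        intro h
        apply x3_ne
        have e1 : x3 = g⁻¹ * (g * x3 * g⁻¹) * g := by group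
        rw [e1, h]
        group
      cases h1 : Nat.beq i iN with
      | true =>
        apply hne1
        rw [e, Nat.eq_of_beq_eq_true h1, hid]
        rfl
      | false =>
        rw [h1] at hc
        have h2 : fixAll ptQ bQ (ws i ++ (ws i ++ ws i)) = true := by
          apply fixAll_of_one (lt10_append (hws i hi) (lt10_append (hws i hi) (hws i hi)))
          rw [prodA_append, prodA_append, ← e, mul_assoc]
          exact hcube
        have hc2 : Bool.not (fixAll ptQ bQ (ws i ++ (ws i ++ ws i))) = true := hc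
        rw [h2] at hc2
        exact absurd hc2 (by decide)
    | false =>
      rw [h0] at hc
      cases h1 : Nat.beq (cert i) 1 with
      | true =>
        rw [h1] at hc
        have hc2 : A.any (Nat.beq i) = true := hc
        rw [List.any_eq_true] at hc2
        obtain ⟨b, hb, hb2⟩ := hc2
        have : i = b := Nat.eq_of_beq_eq_true hb2
        exact ⟨⟨i, List.mem_toFinset.2 (this ▸ hb)⟩, e⟩
      | false =>
        exfalso
        rw [h1] at hc
        set s := Nat.div (Nat.sub (cert i) 2) 3 with hs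
        set r := Nat.mod (Nat.sub (cert i) 2) 3 with hr
        have hc2 : wEq (ws i) (invW invQ (ws s) ++ (reps.getD r [] ++ ws s)) = true := hc
        have hr3 : r < 3 := Nat.mod_lt _ (by norm_num)
        have hf := hfree r hr3
        have hlts : lt10 (ws s) = true := by
          have h3 := hc2
          rw [wEq, andB_eq_true, andB_eq_true] at h3
          have h4 := h3.2.1
          simp only [lt10, List.all_append, Bool.and_eq_true] at h4
          exact h4.2.2
        have h5 := prodA_EQ_eq hc2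
        rw [prodA_append, prodA_append, EQ_word_inv _ hlts, ← e] at h5
        -- the representative is conjugate to the element
        have hconj : IsConj x3 (prodA EQ (reps.getD r [])) := by
          have h6 : y = prodA EQ (ws s) * prodA EQ (reps.getD r []) * (prodA EQ (ws s))⁻¹ := by
            rw [h5, mul_assoc]
          have h7 : prodA EQ (reps.getD r []) = (prodA EQ (ws s))⁻¹ * y * prodA EQ (ws s) := by
            rw [h6]
            group
          rw [h7]
          obtain ⟨g, rfl⟩ := isConj_iff.1 hy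
          refine isConj_iff.2 ⟨(prodA EQ (ws s))⁻¹ * g, ?_⟩
          group
        apply not_conj_of_free _ hconj
        intro p hp
        have hpn : p.1 < 3906 := lt_of_lt_of_eq p.2 n_eq
        have h8 : Bool.not (Nat.beq (ptQ.val (reps.getD r []) p.1) p.1) = true := allN_spec hf.2 p.1 hpn
        have h9 := phi_val _ hf.1 p
        rw [hp] at h9
        rw [← h9, Nat.beq_refl] at h8
        exact absurd h8 (by decide)
  choose f hf using key
  have hinj : Function.Injective f := by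
    intro a b hab
    apply Subtype.ext
    rw [hf a, hf b, hab]
  have h := Nat.card_le_card_of_injective f hinj
  have h2 : Nat.card A.toFinset = A.toFinset.card := Nat.card_eq_fintype_card.trans (Fintype.card_coe _)
  rw [h2] at h
  exact h.trans (List.toFinset_card_le A)

end list

/-! ### The subgroups of the nodes -/

theorem gens_card2 : Tj 2 ≤ subOf KQ RQ (gensT.getD 2 []) := Tj_le_sub (n := 2) (by norm_num) card_T2 card_T2'

theorem gens_card3 : Tj 3 ≤ subOf KQ RQ (gensT.getD 3 []) := Tj_le_sub (n := 3) (by norm_num) card_T3 card_T3'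

theorem gens_card4 : Tj 4 ≤ subOf KQ RQ (gensT.getD 4 []) := Tj_le_sub (n := 3) (by norm_num) card_T4 card_T4'

theorem conj2 : Nat.card (conjIn (Tj 2) x3) ≤ 56 := by
  rw [← N2.hA]
  exact conj_le3 Cfsg.Agent.Lib.DCE.Ly.Inv.T2.hall Cfsg.Agent.Lib.DCE.Ly.Inv.T2.hid (by norm_num)
    (gens_lt 2 (by norm_num)) (gens_inv 2 (by norm_num) (by norm_num)) (gens_ne 2 (by norm_num)) N2.hX N2.hfree _ gens_card2

theorem conj3 : Nat.card (conjIn (Tj 3) x3) ≤ 20 := by
  rw [← N3.hA]
  exact conj_le3 Cfsg.Agent.Lib.DCE.Ly.Inv.T3.hall Cfsg.Agent.Lib.DCE.Ly.Inv.T3.hid (by norm_num)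
    (gens_lt 3 (by norm_num)) (gens_inv 3 (by norm_num) (by norm_num)) (gens_ne 3 (by norm_num)) N3.hX N3.hfree _ gens_card3

theorem conj4 : Nat.card (conjIn (Tj 4) x3) ≤ 2 := by
  rw [← N4.hA]
  exact conj_le3 Cfsg.Agent.Lib.DCE.Ly.Inv.T4.hall Cfsg.Agent.Lib.DCE.Ly.Inv.T4.hid (by norm_num)
    (gens_lt 4 (by norm_num)) (gens_inv 4 (by norm_num) (by norm_num)) (gens_ne 4 (by norm_num)) N4.hX N4.hfree _ gens_card4

/-! ### The conjugates in `K` -/

theorem kyf_mono {i j : Nat} (hij : i < j) (hj : j < 200) : Cls.kyf i < Cls.kyf j := by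
  induction j, hij using Nat.le_induction with
  | base => exact Cls.hmono i (by omega)
  | succ j hij ih => exact lt_trans (ih (by omega)) (Cls.hmono j (by omega))

theorem cls_data (i : Nat) (hi : i < 200) :
    lt10 (Cls.yW i) = true ∧ prodA EQ (Cls.yW i) ∈ Kq ∧ IsConj x3 (prodA EQ (Cls.yW i)) := by
  have h : andB (Nat.blt (Cls.rF i) 1) (ltB 16 (Cls.kF i)) = true := allN_spec Cls.hlt i hi
  rw [andB_eq_true] at h
  obtain ⟨h1, h2⟩ := h
  have hr : Cls.rF i < 1 := Nat.le_of_ble_eq_true h1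
  have hrl := Cls.hrep_lt _ hr
  have hrep := prodA_EQ_eq (Cls.hrep _ hr)
  have hk := lt10_kL _ h2
  have hwl : lt10 (cwx (Cls.repW.getD (Cls.rF i) [])) = true := by
    unfold cwx
    exact lt10_append (lt10_invW hrl.1) (lt10_append x3_lt hrl.1)
  set w := Cls.repW.getD (Cls.rF i) [] with hw
  set κ := Cls.kF i with hκ
  have hcw : prodA EQ (cwx w) = prodA EQ w * x3 * (prodA EQ w)⁻¹ := by
    unfold cwx
    rw [prodA_append, prodA_append, EQ_word_inv w hrl.1]
    simp only [x3, mul_assoc]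
  have hy : prodA EQ (Cls.yW i) = prodA EQ (kL κ) * prodA EQ (cwx w) * (prodA EQ (kL κ))⁻¹ := by
    unfold Cls.yW
    rw [prodA_append, prodA_append, EQ_word_inv _ hk]
  refine ⟨?_, ?_, ?_⟩
  · unfold Cls.yW
    exact lt10_append (lt10_invW hk) (lt10_append hwl hk)
  · rw [hy]
    have hm := prodA_kL_mem κ h2
    refine Subgroup.mul_mem _ (Subgroup.mul_mem _ hm ?_) (Subgroup.inv_mem _ hm)
    rw [hrep]
    exact prodA_kL_mem _ hrl.2
  · rw [hy, hcw]
    refine isConj_iff.2 ⟨prodA EQ (kL κ) * prodA EQ w, ?_⟩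
    group

theorem key_eq {i j : Nat} (hi : i < 200) (hj : j < 200) (h : prodA EQ (Cls.yW i) = prodA EQ (Cls.yW j)) :
    Cls.kyf i = Cls.kyf j := by
  have hpt : ∀ p, p < 3906 → ptQ.val (Cls.yW i) p = ptQ.val (Cls.yW j) p := by
    intro p hp
    have hp' : p < ptQ.n := lt_of_lt_of_eq hp n_eq.symm
    have h1 := phi_val _ (cls_data i hi).1 ⟨p, hp'⟩
    have h2 := phi_val _ (cls_data j hj).1 ⟨p, hp'⟩
    rw [← h1, ← h2, h]
  unfold Cls.kyf
  rw [hpt 1 (by norm_num), hpt 12 (by norm_num)]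

theorem conj1 : 200 ≤ Nat.card (conjIn Kq x3) := by
  have hf : ∀ i : Fin 200, prodA EQ (Cls.yW i.1) ∈ conjIn Kq x3 := fun i =>
    ⟨(cls_data i.1 i.2).2.1, (cls_data i.1 i.2).2.2⟩
  have hinj : Function.Injective (fun i : Fin 200 => (⟨_, hf i⟩ : conjIn Kq x3)) := by
    intro a b hab
    have h1 : prodA EQ (Cls.yW a.1) = prodA EQ (Cls.yW b.1) := congrArg Subtype.val hab
    have h2 := key_eq a.2 b.2 h1
    apply Fin.ext
    rcases lt_trichotomy a.1 b.1 with h | h | h
    · exact absurd h2 (ne_of_lt (kyf_mono h b.2))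
    · exact h
    · exact absurd h2.symm (ne_of_lt (kyf_mono h a.2))
  have h := Nat.card_le_card_of_injective _ hinj
  rwa [Nat.card_fin] at h

/-! ### The cosets of `K` fixed by the element -/

theorem fix1_le : Nat.card (fixSet Kq x3) ≤ 252 := by
  classical
  let g : Nat × Nat → Q ⧸ Kq := fun p =>
    QuotientGroup.mk (prodA EQ (beta.getD p.2 [] ++ FixK.rpW.getD p.1 []))
  have hsub : fixSet Kq x3 ⊆ ((FixK.flagged.map g).toFinset : Set (Q ⧸ Kq)) := by
    rintro _ ⟨q, rfl, hq⟩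
    have hfixp : phi x3 (phi q 0) = phi q 0 := by
      have h1 := kq_fix _ hq
      rw [map_mul, map_mul, map_inv, Equiv.Perm.mul_apply, Equiv.Perm.mul_apply, Equiv.Perm.inv_eq_iff_eq] at h1
      exact h1
    set p := phi q 0 with hp
    have hpn : p.1 < 3906 := lt_of_lt_of_eq p.2 n_eq
    have h2 : ptQ.val x3w p.1 = p.1 := by
      have h3 := phi_val x3w x3_lt p
      rw [← h3]
      exact congrArg Fin.val hfixp
    have h3 : cond (Nat.beq (ptQ.val x3w p.1) p.1) (FixK.fp.contains p.1) true = true :=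
      allN_spec FixK.hfp p.1 hpn
    rw [h2, Nat.beq_refl] at h3
    have h4 : p.1 ∈ FixK.fp := by
      simpa using h3
    obtain ⟨f, hf, hfe⟩ := List.getElem_of_mem h4
    have hf42 : f < 126 := hf
    have h5 := FixK.hfp_lt f hf42
    rw [andB_eq_true] at h5
    have h6 : ptQ.val (FixK.rpW.getD f []) 0 = p.1 := by
      have h7 := Nat.eq_of_beq_eq_true h5.1
      rw [h7, List.getD_eq_getElem _ _ hf, hfe]
    have hrp := h5.2
    set rp := FixK.rpW.getD f [] with hrpd
    have h8 : phi (prodA EQ rp) 0 = p := by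
      apply Fin.ext
      rw [phi_val rp hrp 0]
      exact h6
    have h9 : phi ((prodA EQ rp)⁻¹ * q) 0 = 0 := by
      rw [map_mul, map_inv, Equiv.Perm.mul_apply, Equiv.Perm.inv_eq_iff_eq, h8]
    have h10 := mem_sub_of_fix okQ phi phi_spec _ h9
    obtain ⟨i, hi, κ, hκ, hae⟩ := acov _ h10
    have hblt : ∀ i, i < 5 → lt10 (beta.getD i []) = true := by decide +kernel
    set e := beta.getD i [] ++ rp with he
    have hel : lt10 e = true := lt10_append (hblt i hi) hrp
    have hpe : prodA EQ e = prodA EQ rp * prodA EQ (beta.getD i []) := prodA_append _ _ _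
    have hmk : (QuotientGroup.mk q : Q ⧸ Kq) = QuotientGroup.mk (prodA EQ e) := by
      apply QuotientGroup.eq.2
      have : q⁻¹ * prodA EQ e = κ⁻¹ := by
        rw [hpe]
        have hq2 : q = prodA EQ rp * (prodA EQ (beta.getD i []) * κ) := by
          rw [← hae]
          group
        rw [hq2]
        group
      rw [this]
      exact Subgroup.inv_mem _ hκ
    have hfe2 : (prodA EQ e)⁻¹ * x3 * prodA EQ e ∈ Kq := by
      have h11 : (QuotientGroup.mk (prodA EQ e) : Q ⧸ Kq) ∈ fixSet Kq x3 := by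
        rw [← hmk, mem_fixSet_mk]
        exact hq
      exact (mem_fixSet_mk _ _ _).1 h11
    have hrow := FixK.hrow f hf42 i hi
    have hmem : (f, i) ∈ FixK.flagged := by
      cases hent : (FixK.rowT.getD f []).getD i none with
      | none =>
        rw [hent] at hrow
        have h12 : FixK.flagged.any (fun y => andB (Nat.beq y.1 f) (Nat.beq y.2 i)) = true := hrow
        rw [List.any_eq_true] at h12
        obtain ⟨y, hy, hy2⟩ := h12
        rw [andB_eq_true] at hy2
        have e1 := Nat.eq_of_beq_eq_true hy2.1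
        have e2 := Nat.eq_of_beq_eq_true hy2.2
        have : y = (f, i) := Prod.ext e1 e2
        rw [← this]
        exact hy
      | some x =>
        exfalso
        rw [hent] at hrow
        have h12 : andB (Nat.blt 0 x.1) (andB (Nat.blt x.1 5) (andB (ltB 16 x.2)
          (wEq (e ++ (x3w ++ invW invQ e)) (kL x.2 ++ beta.getD x.1 [])))) = true := hrow
        rw [andB_eq_true, andB_eq_true, andB_eq_true] at h12
        obtain ⟨h13, h14, h15, h16⟩ := h12
        have h17 : prodA EQ (e ++ (x3w ++ invW invQ e)) = prodA EQ (kL x.2 ++ beta.getD x.1 []) := prodA_EQ_eq h16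
        apply beta_notin x.1 (Nat.le_of_ble_eq_true h13) (Nat.le_of_ble_eq_true h14)
        have h18 : prodA EQ (beta.getD x.1 []) =
            ((prodA EQ e)⁻¹ * x3 * prodA EQ e) * (prodA EQ (kL x.2))⁻¹ := by
          have h19 : (prodA EQ e)⁻¹ * x3 * prodA EQ e = prodA EQ (beta.getD x.1 []) * prodA EQ (kL x.2) := by
            have e1 : prodA EQ (e ++ (x3w ++ invW invQ e)) = (prodA EQ e)⁻¹ * x3 * prodA EQ e := by
              rw [prodA_append EQ e, prodA_append EQ x3w, EQ_word_inv e hel]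
              rfl
            have e2 : prodA EQ (kL x.2 ++ beta.getD x.1 []) = prodA EQ (beta.getD x.1 []) * prodA EQ (kL x.2) :=
              prodA_append _ _ _
            rw [← e1, ← e2]
            exact h17
          rw [h19]
          group
        rw [h18]
        exact Subgroup.mul_mem _ hfe2 (Subgroup.inv_mem _ (prodA_kL_mem _ h15))
    simp only [Finset.mem_coe, List.mem_toFinset, List.mem_map]
    exact ⟨(f, i), hmem, hmk.symm⟩
  have h1 : (fixSet Kq x3).ncard ≤ ((FixK.flagged.map g).toFinset : Set (Q ⧸ Kq)).ncard :=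
    Set.ncard_le_ncard hsub (Set.toFinite _)
  rw [Set.ncard_coe_finset] at h1
  have h2 := List.toFinset_card_le (FixK.flagged.map g)
  rw [List.length_map, FixK.hflagged] at h2
  rw [Nat.card_coe_set_eq]
  omega

/-! ### The order of the centraliser in `Q` -/

theorem card_CQ_le : Nat.card (Subgroup.centralizer ({x3} : Set Q)) ≤ 378000 := by
  have h := fix_card Kq x3
  rw [card_Kq] at h
  have h1 := fix1_le
  have h2 := conj1
  have h3 : Nat.card (Subgroup.centralizer ({x3} : Set Q)) * 200 ≤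
      Nat.card (Subgroup.centralizer ({x3} : Set Q)) * Nat.card (conjIn Kq x3) := Nat.mul_le_mul_left _ h2
  omega

theorem fix_node {j o i0 : Nat} (hc : Nat.card (Tj j) = o) (hi : Nat.card (conjIn (Tj j) x3) ≤ i0) :
    Nat.card (fixSet (Tj j) x3) * o ≤ 378000 * i0 := by
  have h := fix_card (Tj j) x3
  rw [hc] at h
  rw [h]
  exact Nat.mul_le_mul card_CQ_le hi

theorem fix0_le : (fixSet (Tj 0) x3).ncard ≤ 1 := by
  have h1 := Subgroup.index_eq_card (Tj 0)
  have h2 := index_T 0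
  have h3 : Cfsg.Agent.Lib.DCE.Ly.Final.nn 0 = 1 := rfl
  have h4 : (fixSet (Tj 0) x3).ncard ≤ Nat.card (Q ⧸ Tj 0) := by
    rw [← Nat.card_coe_set_eq]
    exact Finite.card_subtype_le _
  have h5 : (Tj 0).index = 1 := h2.trans h3
  omega

theorem fix1_le' : (fixSet (Tj 1) x3).ncard ≤ 252 := by
  rw [← Kq_eq, ← Nat.card_coe_set_eq]
  exact fix1_le

theorem fix2_le : (fixSet (Tj 2) x3).ncard ≤ 3500 := by
  rw [← Nat.card_coe_set_eq]
  have := fix_node card_T2' conj2
  omega

theorem fix3_le : (fixSet (Tj 3) x3).ncard ≤ 2625 := by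
  rw [← Nat.card_coe_set_eq]
  have := fix_node card_T3' conj3
  omega

theorem fix4_le : (fixSet (Tj 4) x3).ncard ≤ 750 := by
  rw [← Nat.card_coe_set_eq]
  have := fix_node card_T4' conj4
  omega

/-! ### The cosets of the subgroup fixed by the element -/

/-- The element of order three of the group. -/
noncomputable def xh : Γ := iota x3

theorem rep_fix (x : Γ ⧸ HH) (hx : x ∈ fixCosets HH xh) :
    ∃ j : Fin 5, ∃ q : Q, x = QuotientGroup.mk (iota q * (W j.1)⁻¹) ∧ q⁻¹ * x3 * q ∈ Tj j.1 := by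
  obtain ⟨g, rfl⟩ := QuotientGroup.mk_surjective x
  obtain ⟨j, _, ⟨q', rfl⟩, hE⟩ := hcover g⁻¹
  have hE' : g⁻¹ * (W j.1 * iota q')⁻¹ ∈ HH := hE
  refine ⟨j, q'⁻¹, ?_, ?_⟩
  · apply QuotientGroup.eq.2
    have e : g⁻¹ * (iota q'⁻¹ * (W j.1)⁻¹) = g⁻¹ * (W j.1 * iota q')⁻¹ := by
      rw [map_inv]
      group
    rw [e]
    exact hE'
  · have h1 : (QuotientGroup.mk (xh * g) : Γ ⧸ HH) = QuotientGroup.mk g := hx
    have h2 : (xh * g)⁻¹ * g ∈ HH := QuotientGroup.eq.1 h1
    have h3 : g⁻¹ * xh * g ∈ HH := by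
      have h4 := HH.inv_mem h2
      have e : ((xh * g)⁻¹ * g)⁻¹ = g⁻¹ * xh * g := by group
      rwa [e] at h4
    change W j.1 * iota (q'⁻¹⁻¹ * x3 * q'⁻¹) * (W j.1)⁻¹ ∈ HH
    set k := g⁻¹ * (W j.1 * iota q')⁻¹ with hk
    have e : W j.1 * iota (q'⁻¹⁻¹ * x3 * q'⁻¹) * (W j.1)⁻¹ = k⁻¹ * (g⁻¹ * xh * g) * k := by
      rw [hk, xh, map_mul, map_mul, map_inv, map_inv, inv_inv]
      group
    rw [e]
    exact HH.mul_mem (HH.mul_mem (HH.inv_mem hE') h3) hE'

theorem fix_total : (fixCosets HH xh).ncard ≤ 7128 := by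
  have hsub : fixCosets HH xh ⊆ psi 0 '' fixSet (Tj 0) x3 ∪ (psi 1 '' fixSet (Tj 1) x3 ∪
      (psi 2 '' fixSet (Tj 2) x3 ∪ (psi 3 '' fixSet (Tj 3) x3 ∪ psi 4 '' fixSet (Tj 4) x3))) := by
    intro x hx
    obtain ⟨j, q, rfl, hm⟩ := rep_fix x hx
    have h1 : ∀ j : Nat, q⁻¹ * x3 * q ∈ Tj j → (QuotientGroup.mk (iota q * (W j)⁻¹) : Γ ⧸ HH) ∈
        psi j '' fixSet (Tj j) x3 := by
      intro j hm
      exact ⟨QuotientGroup.mk q, (mem_fixSet_mk _ _ _).2 hm, psi_mk j q⟩
    have h2 := h1 j.1 hm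
    fin_cases j
    · exact Or.inl h2
    · exact Or.inr (Or.inl h2)
    · exact Or.inr (Or.inr (Or.inl h2))
    · exact Or.inr (Or.inr (Or.inr (Or.inl h2)))
    · exact Or.inr (Or.inr (Or.inr (Or.inr h2)))
  have h := Set.ncard_le_ncard hsub (Set.toFinite _)
  have i0 := Set.ncard_image_le (f := psi 0) (Set.toFinite (fixSet (Tj 0) x3))
  have i1 := Set.ncard_image_le (f := psi 1) (Set.toFinite (fixSet (Tj 1) x3))
  have i2 := Set.ncard_image_le (f := psi 2) (Set.toFinite (fixSet (Tj 2) x3))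
  have i3 := Set.ncard_image_le (f := psi 3) (Set.toFinite (fixSet (Tj 3) x3))
  have i4 := Set.ncard_image_le (f := psi 4) (Set.toFinite (fixSet (Tj 4) x3))
  have u0 := Set.ncard_union_le (psi 0 '' fixSet (Tj 0) x3) (psi 1 '' fixSet (Tj 1) x3 ∪
      (psi 2 '' fixSet (Tj 2) x3 ∪ (psi 3 '' fixSet (Tj 3) x3 ∪ psi 4 '' fixSet (Tj 4) x3)))
  have u1 := Set.ncard_union_le (psi 1 '' fixSet (Tj 1) x3)
      (psi 2 '' fixSet (Tj 2) x3 ∪ (psi 3 '' fixSet (Tj 3) x3 ∪ psi 4 '' fixSet (Tj 4) x3))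
  have u2 := Set.ncard_union_le (psi 2 '' fixSet (Tj 2) x3) (psi 3 '' fixSet (Tj 3) x3 ∪ psi 4 '' fixSet (Tj 4) x3)
  have u3 := Set.ncard_union_le (psi 3 '' fixSet (Tj 3) x3) (psi 4 '' fixSet (Tj 4) x3)
  have f0 := fix0_le
  have f1 := fix1_le'
  have f2 := fix2_le
  have f3 := fix3_le
  have f4 := fix4_le
  omega

/-- The bound for the order of the centraliser. -/
theorem card_C_le : Nat.card (Subgroup.centralizer ({xh} : Set Γ)) ≤ 2694384000 := by
  have ht : xh ∈ HH := ⟨x3, rfl⟩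
  have h1 := card_centralizer_le HH xh ht
  have h2 : Nat.card ((Subgroup.centralizer ({xh} : Set Γ) ⊓ HH : Subgroup Γ)) ≤ 378000 := by
    refine le_trans ?_ card_CQ_le
    have hex : ∀ x : ((Subgroup.centralizer ({xh} : Set Γ) ⊓ HH : Subgroup Γ)),
        ∃ q : Subgroup.centralizer ({x3} : Set Q), iota q.1 = x.1 := by
      rintro ⟨x, hx1, q, rfl⟩
      refine ⟨⟨q, ?_⟩, rfl⟩
      rw [Subgroup.mem_centralizer_iff]
      intro h hh
      rw [Set.mem_singleton_iff] at hh
      subst hh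
      apply iota_inj
      rw [map_mul, map_mul]
      exact (Subgroup.mem_centralizer_iff.1 hx1) xh rfl
    choose f hf using hex
    apply Nat.card_le_card_of_injective f
    intro a b hab
    apply Subtype.ext
    rw [← hf a, ← hf b, hab]
  rw [Nat.card_coe_set_eq] at h1
  calc Nat.card (Subgroup.centralizer ({xh} : Set Γ)) ≤ _ := h1
    _ ≤ 7128 * 378000 := Nat.mul_le_mul fix_total h2
    _ = 2694384000 := by norm_num

theorem xh_ne : xh ≠ 1 := by
  intro h
  apply x3_ne
  apply iota_inj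
  rw [map_one]
  exact h

theorem xh_cube : xh ^ 3 = 1 := by
  have h : xh ^ 3 = iota (x3 * x3 * x3) := by
    rw [map_mul, map_mul, pow_succ, pow_two]
    rfl
  rw [h, x3_cube, map_one]

theorem orderOf_xh : orderOf xh = 3 := by
  apply orderOf_eq_prime xh_cube xh_ne

end Cfsg.Agent.Lib.DCE.Ly.Inv3.Count
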