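import Cfsg.Agent.Lib.DCE.Ly.Inv.Count

/-! The definitions of the data about an element of order three of `Q`. -/

namespace Cfsg.Agent.Lib.DCE.Ly.Inv3.Defs

open Cfsg.Agent.Lib.TC.Core Cfsg.Agent.Lib.TC.Pres Cfsg.Agent.Lib.TC.Iso Cfsg.Agent.Lib.DCE.MatP
  Cfsg.Agent.Lib.DCE.Ly.Setup Cfsg.Agent.Lib.DCE.Ly.Rules Cfsg.Agent.Lib.DCE.Ly.Gens
  Cfsg.Agent.Lib.DCE.Ly.Cov.Beta

set_option maxRecDepth 100000

/-- The word of the element of order three. -/
def x3w : List Nat := [0,6,5,1]

/-- The element of order three. -/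
noncomputable def x3 : Q := prodA EQ x3w

/-- The word of a conjugate of the element. -/
def cwx (w : List Nat) : List Nat := invW invQ w ++ (x3w ++ w)

/-- The check of a coset of `K`. -/
noncomputable def chkRowX (rp : List Nat) (i : Nat) (entry : Option (Nat × List Nat)) (flagged : List (Nat × Nat)) (f : Nat) :
    Bool :=
  Option.rec (flagged.any fun y => andB (Nat.beq y.1 f) (Nat.beq y.2 i))
    (fun x => andB (Nat.blt 0 x.1) (andB (Nat.blt x.1 5) (andB (ltB 16 x.2)
      (wEq ((beta.getD i [] ++ rp) ++ (x3w ++ invW invQ (beta.getD i [] ++ rp))) (kL x.2 ++ beta.getD x.1 []))))) entry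

/-- The check of an element of the list of a node. -/
noncomputable def chkX (ws : Nat → List Nat) (cert : Nat → Nat) (reps : List (List Nat)) (A : List Nat) (iN i : Nat) : Bool :=
  Bool.rec
    (Bool.rec
      (wEq (ws i) (invW invQ (ws (Nat.div (Nat.sub (cert i) 2) 3)) ++
        (reps.getD (Nat.mod (Nat.sub (cert i) 2) 3) [] ++ ws (Nat.div (Nat.sub (cert i) 2) 3))))
      (A.any (Nat.beq i)) (Nat.beq (cert i) 1))
    (Bool.rec (Bool.not (fixAll ptQ bQ (ws i ++ (ws i ++ ws i)))) true (Nat.beq i iN))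
    (Nat.beq (cert i) 0)

end Cfsg.Agent.Lib.DCE.Ly.Inv3.Defs
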