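import Cfsg.Agent.Lib.DCE.Ly.Inv.MxD
import Cfsg.Agent.Lib.DCE.Ly.Inv3.XiG

/-! The relations between the matrices of the generators. -/

namespace Cfsg.Agent.Lib.DCE.Ly.Inv3.XiE

open Cfsg.Agent.Lib.TC.Core Cfsg.Agent.Lib.TC.Enc Cfsg.Agent.Lib.TC.Pres Cfsg.Agent.Lib.DCE.MatP
  Cfsg.Agent.Lib.DCE.Ly.Exp Cfsg.Agent.Lib.DCE.Ly.Model.Let Cfsg.Agent.Lib.DCE.Ly.Model.Rho
  Cfsg.Agent.Lib.DCE.Ly.Inv.MxD Cfsg.Agent.Lib.DCE.Ly.Inv3.XiG

set_option maxRecDepth 100000

/-- The letters of the table. -/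
def lc (c : Nat) : MT := lettM 5 111 Mc c

/-- The check of an equality of two words in the table. -/
def eqC (a b : List Nat) : Bool :=
  (a.all (fun l => Nat.blt l 7) && b.all (fun l => Nat.blt l 7)) &&
    (prodW 5 111 Mc (idM 111) a == prodW 5 111 Mc (idM 111) b)

theorem hgoodMc : goodT 5 111 Mc = true := by decide +kernel

theorem hlenMc : Mc.length = 7 := rfl

theorem eqC_spec {a b : List Nat} (h : eqC a b = true) : (a.map lc).prod = (b.map lc).prod := by
  simp only [eqC, Bool.and_eq_true, List.all_eq_true, beq_iff_eq, Nat.blt_eq] at h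
  obtain ⟨⟨ha, hb⟩, h⟩ := h
  have h1 := toM_prodW 5 111 (by norm_num) (by norm_num) Mc hgoodMc a (fun z hz => by rw [hlenMc]; exact ha z hz)
    (idM 111) (goodM_idM 5 111 (by norm_num))
  have h2 := toM_prodW 5 111 (by norm_num) (by norm_num) Mc hgoodMc b (fun z hz => by rw [hlenMc]; exact hb z hz)
    (idM 111) (goodM_idM 5 111 (by norm_num))
  rw [h, h2, toM_idM, one_mul, one_mul] at h1
  exact h1.symm

theorem e1 : eqC [0, 1] [] = true := by decide +kernel

theorem e2 : eqC [5, 6] [] = true := by decide +kernel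

theorem e3 : eqC [5, 0, 6] [2] = true := by decide +kernel

theorem e4 : eqC [5, 1, 6] [3] = true := by decide +kernel

theorem e5 : eqC [0, 4] [4, 0] = true := by decide +kernel

theorem e6 : eqC [5, 4] [4, 5] = true := by decide +kernel

end Cfsg.Agent.Lib.DCE.Ly.Inv3.XiE
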