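import Cfsg.Agent.Lib.DCE.Ly.Inv3.Count
import Cfsg.Agent.Lib.DCE.Ly.Inv3.XiW
import Cfsg.Agent.Lib.DCE.Ly.Inv3.XiE
import Cfsg.Agent.Lib.DCE.Ly.Inv3.XiA
import Cfsg.Agent.Lib.DCE.Restrict
import Cfsg.Agent.Lib.TC.Chain2
import Cfsg.Prelude.Def_Sporadic

/-! The centraliser of the element of order three. -/

namespace Cfsg.Agent.Lib.DCE.Ly.Inv3.Xi

open Cfsg.Agent.Lib.TC.Core Cfsg.Agent.Lib.TC.Enc Cfsg.Agent.Lib.TC.Pres Cfsg.Agent.Lib.TC.Perm Cfsg.Agent.Lib.TC.Chain
  Cfsg.Agent.Lib.TC.Chain2 Cfsg.Agent.Lib.DCE.MatP Cfsg.Agent.Lib.DCE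
  Cfsg.Agent.Lib.DCE.Ly.Exp Cfsg.Agent.Lib.DCE.Ly.Setup Cfsg.Agent.Lib.DCE.Ly.Model.Rho
  Cfsg.Agent.Lib.DCE.Ly.Final Cfsg.Agent.Lib.DCE.Ly.Inv.MxD
  Cfsg.Agent.Lib.DCE.Ly.Inv3.Count Cfsg.Agent.Lib.DCE.Ly.Inv3.XiG Cfsg.Agent.Lib.DCE.Ly.Inv3.XiE
  Cfsg.Agent.Lib.DCE.Ly.Inv3.XiC Cfsg.Agent.Lib.DCE.Restrict

set_option maxRecDepth 100000
set_option maxHeartbeats 2000000

/-- The first generator. -/
noncomputable def g1 : Γ := elt yW

/-- The second generator. -/
noncomputable def g2 : Γ := zz * g1 * zz⁻¹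

theorem xh_eq : xh = elt xW := by
  have h : iota (prodA EQ Cfsg.Agent.Lib.DCE.Ly.Inv3.Defs.x3w) = ev Cfsg.Agent.Lib.DCE.Ly.Inv3.Defs.x3w :=
    iota_prodA _ (by decide +kernel)
  exact h

theorem zz_eq : zz = elt [5] := by
  simp [elt, zz, prodA_cons]

theorem hY : (rho g1).val = lc 0 := XiW.rw_y.2.1

theorem hX : (rho xh).val = lc 4 := by
  rw [xh_eq]
  exact XiW.rw_x.2.1

theorem hZ : (rho zz).val = lc 5 := by
  rw [zz_eq]
  exact XiW.rw_z.2.1

theorem lift2 {a b : Nat} (h : eqC [a, b] [] = true) : lc a * lc b = 1 := by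
  have h3 := eqC_spec h
  simpa only [List.map_cons, List.map_nil, List.prod_cons, List.prod_nil, mul_one] using h3

theorem hYi : (rho g1⁻¹).val = lc 1 := by
  rw [map_inv]
  exact Units.inv_eq_of_mul_eq_one_right (by rw [hY]; exact lift2 e1)

theorem hZi : (rho zz⁻¹).val = lc 6 := by
  rw [map_inv]
  exact Units.inv_eq_of_mul_eq_one_right (by rw [hZ]; exact lift2 e2)

theorem hG2 : (rho g2).val = lc 2 := by
  have h3 := eqC_spec e3
  simp only [List.map_cons, List.map_nil, List.prod_cons, List.prod_nil, mul_one] at h3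
  rw [g2, map_mul, map_mul, Units.val_mul, Units.val_mul, hZ, hY, hZi, mul_assoc]
  exact h3

theorem g2_inv : g2⁻¹ = zz * g1⁻¹ * zz⁻¹ := by
  rw [g2]
  group

theorem hG2i : (rho g2⁻¹).val = lc 3 := by
  have h3 := eqC_spec e4
  simp only [List.map_cons, List.map_nil, List.prod_cons, List.prod_nil, mul_one] at h3
  rw [g2_inv, map_mul, map_mul, Units.val_mul, Units.val_mul, hZ, hYi, hZi, mul_assoc]
  exact h3

theorem comm1 : g1 * xh = xh * g1 := by
  have h3 := eqC_spec e5
  simp only [List.map_cons, List.map_nil, List.prod_cons, List.prod_nil, mul_one] at h3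
  apply rho_inj
  apply Units.ext
  rw [map_mul, map_mul, Units.val_mul, Units.val_mul, hY, hX]
  exact h3

theorem commz : zz * xh = xh * zz := by
  have h3 := eqC_spec e6
  simp only [List.map_cons, List.map_nil, List.prod_cons, List.prod_nil, mul_one] at h3
  apply rho_inj
  apply Units.ext
  rw [map_mul, map_mul, Units.val_mul, Units.val_mul, hZ, hX]
  exact h3

/-- The centraliser. -/
noncomputable abbrev CC : Subgroup Γ := Subgroup.centralizer ({xh} : Set Γ)

theorem mem_CC {y : Γ} (h : y * xh = xh * y) : y ∈ CC := by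
  rw [Subgroup.mem_centralizer_iff]
  intro a ha
  rw [Set.mem_singleton_iff] at ha
  subst ha
  exact h.symm

theorem g1_mem : g1 ∈ CC := mem_CC comm1

theorem zz_mem : zz ∈ CC := mem_CC commz

theorem xh_mem : xh ∈ CC := mem_CC rfl

theorem g2_mem : g2 ∈ CC :=
  CC.mul_mem (CC.mul_mem zz_mem g1_mem) (CC.inv_mem zz_mem)

/-! ### The action on the vectors -/

/-- The action on the vectors. -/
noncomputable abbrev psi : Γ →* Equiv.Perm (Fin 111 → ZMod 5) := actHom rho

/-- The points. -/
noncomputable def Om (i : Fin 7128) : Fin 111 → ZMod 5 := toV 5 111 (vs i.1)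

/-- The elements of the letters. -/
noncomputable def Ec (c : Nat) : Γ := [g1, g2, g1⁻¹, g2⁻¹].getD c 1

theorem hpoint (i : Nat) (hi : i < 7128) : vs i = red 5 111 (vs i) ∧ ∀ g, g < 4 → pi g i < 7128 ∧
    rowMul 5 111 (vs i) (Gs.getD g []) = vs (pi g i) := by
  have h := XiA.hP i hi
  rw [chkPoint, andB_eq_true] at h
  refine ⟨Nat.eq_of_beq_eq_true h.1, fun g hg => ?_⟩
  have h2 := allN_spec h.2 g hg
  rw [andB_eq_true] at h2
  exact ⟨Nat.le_of_ble_eq_true h2.1, Nat.eq_of_beq_eq_true h2.2⟩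

theorem Om_inj : Function.Injective Om := by
  intro a b hab
  have h1 : vs a.1 = vs b.1 := toV_inj 5 111 (hpoint a.1 a.2).1 (hpoint b.1 b.2).1 hab
  apply Fin.ext
  by_contra hne
  rcases lt_or_gt_of_ne hne with h2 | h2
  · have := strictMono_of_chkOrd XiA.hO a.1 b.1 h2 b.2
    omega
  · have := strictMono_of_chkOrd XiA.hO b.1 a.1 h2 a.2
    omega

theorem hgoodGs : goodT 5 111 Gs = true := by decide +kernel

theorem goodR_vs (i : Nat) (hi : i < 7128) : GoodR 5 (vs i) := by
  rw [(hpoint i hi).1]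
  exact goodR_red 5 111 (by norm_num) _

theorem goodM_Gs (g : Nat) (hg : g < 4) : GoodM 5 111 (Gs.getD g []) := by
  apply goodM_of_goodB 5 111 (by norm_num)
  have hg' : g < Gs.length := hg
  have := List.all_eq_true.mp hgoodGs (Gs.getD g []) (by simp [List.getD_eq_getElem?_getD, hg'])
  exact this

theorem rho_Gs (c : Nat) (hc : c < 4) : (rho (Ec c)⁻¹).val = toM 5 111 (Gs.getD c []) := by
  interval_cases c
  · exact hYi
  · exact hG2i
  · change (rho (g1⁻¹)⁻¹).val = _
    rw [inv_inv]
    exact hY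
  · change (rho (g2⁻¹)⁻¹).val = _
    rw [inv_inv]
    exact hG2

theorem hact (c : Nat) (hc : c < 4) (i : Fin 7128) : psi (Ec c) (Om i) = Om ⟨pi c i.1, ((hpoint i.1 i.2).2 c hc).1⟩ := by
  have h1 := actHom_inv rho (Ec c)⁻¹ (Om i)
  rw [inv_inv, rho_Gs c hc] at h1
  rw [h1]
  have h2 := toV_rowMul 5 111 (by norm_num) (by norm_num) (vs i.1) (Gs.getD c []) (goodR_vs i.1 i.2) (goodM_Gs c hc)
  rw [((hpoint i.1 i.2).2 c hc).2] at h2
  exact h2.symm

theorem hact_x (i : Fin 7128) : psi xh (Om i) = Om i := by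
  have h1 := actHom_inv rho xh (Om i)
  rw [hX] at h1
  have hg : GoodM 5 111 G_X := by
    have := goodM_of_goodB 5 111 (by norm_num) G_X (by decide +kernel)
    exact this
  have h2 := toV_rowMul 5 111 (by norm_num) (by norm_num) (vs i.1) G_X (goodR_vs i.1 i.2) hg
  rw [Nat.eq_of_beq_eq_true (XiA.hXf i.1 i.2)] at h2
  have h3 : psi xh⁻¹ (Om i) = Om i := h1.trans h2.symm
  have h4 : psi xh (psi xh⁻¹ (Om i)) = Om i := by
    rw [← Equiv.Perm.mul_apply, ← map_mul, mul_inv_cancel, map_one]
    rfl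
  rw [h3] at h4
  exact h4

/-- The generators. -/
def gensE : Set Γ := {g1, g2, xh}

/-- The subgroup generated by the generators. -/
noncomputable def EE : Subgroup Γ := Subgroup.closure gensE

theorem exists_phi : ∃ φ : EE →* Equiv.Perm (Fin 7128), ∀ (g : EE) (i : Fin 7128), Om (φ g i) = psi g.1 (Om i) :=
  exists_restrict psi gensE Om Om_inj (by
    rintro g (rfl | rfl | rfl) i
    · exact ⟨_, hact 0 (by norm_num) i⟩
    · exact ⟨_, hact 1 (by norm_num) i⟩
    · exact ⟨i, hact_x i⟩)

/-- The action. -/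
noncomputable def phiE : EE →* Equiv.Perm (Fin 7128) := Classical.choose exists_phi

theorem phiE_spec (g : EE) (i : Fin 7128) : Om (phiE g i) = psi g.1 (Om i) := Classical.choose_spec exists_phi g i

theorem g1_memE : g1 ∈ EE := Subgroup.subset_closure (Or.inl rfl)

theorem g2_memE : g2 ∈ EE := Subgroup.subset_closure (Or.inr (Or.inl rfl))

theorem xh_memE : xh ∈ EE := Subgroup.subset_closure (Or.inr (Or.inr rfl))

/-- The letters in the subgroup. -/
noncomputable def Em (c : Nat) : EE :=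
  [⟨g1, g1_memE⟩, ⟨g2, g2_memE⟩, (⟨g1, g1_memE⟩ : EE)⁻¹, (⟨g2, g2_memE⟩ : EE)⁻¹].getD c 1

theorem Em_val (c : Nat) (hc : c < 4) : (Em c).1 = Ec c := by
  interval_cases c <;> rfl

theorem phi_letter (c : Nat) (hc : c < 4) (i : Fin 7128) : (phiE (Em c) i).1 = pi c i.1 := by
  have h1 := phiE_spec (Em c) i
  rw [Em_val c hc, hact c hc i] at h1
  have h2 := Om_inj h1
  exact congrArg Fin.val h2

instance neZeroC : NeZero ptC.n := ⟨by
  change (7128 : Nat) ≠ 0
  norm_num⟩

/-- The action, with the type of the table. -/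
noncomputable abbrev phiC : EE →* Equiv.Perm (Fin ptC.n) := phiE

theorem hval (l : List Nat) (hl : ∀ z ∈ l, z < ptC.k) (i : Fin ptC.n) : (phiC (prodA Em l) i).1 = ptC.val l i.1 := by
  induction l generalizing i with
  | nil =>
    simp only [prodA_nil, map_one]
    rfl
  | cons z l ih =>
    rw [prodA_cons, map_mul, Equiv.Perm.mul_apply, ih (fun y hy => hl y (by simp [hy]))]
    have h1 := phi_letter z (hl z (by simp)) i
    change ptC.val l (phiE (Em z) i).1 = ptC.val l (pi z i.1)
    rw [h1]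

theorem hlab0 : ptC.orbRange ts0 (fun _ => 0) aP aW aD (fun _ => 0) 0 ptC.n = true := by decide +kernel

theorem ts0_lt : ∀ l ∈ ts0, ∀ z ∈ l, z < ptC.k := by decide +kernel

theorem htr (i : Fin ptC.n) : ∃ g, phiC g 0 = i := by
  obtain ⟨g, _, r, hr, e⟩ := forest_conn Em phiC (ts := ts0) (fun l hl i => hval l (ts0_lt l hl) i) hlab0 i
  refine ⟨g, ?_⟩
  have h0 : r = 0 := Fin.ext hr
  rw [h0] at e
  exact e

theorem hlev : PermLev.levsOK ptC [0] levels = true := by decide +kernel

theorem hprod : ptC.n * PermLev.prodM levels = 898128000 := by decide +kernel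

theorem card_range_ge' : 898128000 ≤ Nat.card phiC.range := by
  have h := PermLev.card_range_ge (P := ptC) (E := Em) (φ' := phiC) hval htr levels hlev
  rwa [hprod] at h

/-! ### The orders -/

theorem EE_le : EE ≤ CC := by
  rw [EE, Subgroup.closure_le]
  rintro g (rfl | rfl | rfl)
  · exact g1_mem
  · exact g2_mem
  · exact xh_mem

/-- The element of order three in the subgroup. -/
noncomputable def xE : EE := ⟨xh, xh_memE⟩

theorem xE_ker : xE ∈ phiE.ker := by
  rw [MonoidHom.mem_ker]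
  ext i
  have h1 := phiE_spec xE i
  have h2 : psi xE.1 (Om i) = Om i := hact_x i
  rw [h2] at h1
  rw [Om_inj h1]
  rfl

theorem three_le_ker : 3 ≤ Nat.card phiE.ker := by
  have h1 := Subgroup.card_le_of_le ((Subgroup.zpowers_le).2 xE_ker)
  have h2 : orderOf xE = 3 := by
    rw [← orderOf_xh]
    exact Subgroup.orderOf_mk xh xh_memE
  rwa [Nat.card_zpowers, h2] at h1

theorem card_EE : Nat.card EE = Nat.card phiE.ker * Nat.card phiE.range := by
  rw [← Subgroup.index_ker, Subgroup.card_mul_index]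

theorem orders : Nat.card phiE.range = 898128000 ∧ Nat.card phiE.ker = 3 ∧ Nat.card EE = 2694384000 := by
  have h1 : Nat.card EE ≤ 2694384000 := (Subgroup.card_le_of_le EE_le).trans card_C_le
  have h2 := card_EE
  have h3 := three_le_ker
  have h4 : 898128000 ≤ Nat.card phiE.range := card_range_ge'
  have h5 : 3 * Nat.card phiE.range ≤ Nat.card phiE.ker * Nat.card phiE.range := Nat.mul_le_mul_right _ h3
  have h6 : Nat.card phiE.range = 898128000 := by omega
  rw [h6] at h2
  have h7 : Nat.card phiE.ker = 3 := by omega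
  rw [h7] at h2
  exact ⟨h6, h7, by omega⟩

theorem EE_eq : EE = CC :=
  Subgroup.eq_of_le_of_card_ge EE_le (by rw [orders.2.2]; exact card_C_le)

theorem zz_memE : zz ∈ EE := by
  rw [EE_eq]
  exact zz_mem

/-! ### The image is simple -/

/-- The image. -/
noncomputable abbrev MM : Subgroup (Equiv.Perm (Fin ptC.n)) := phiC.range

/-- The letters in the image. -/
noncomputable def EM (c : Nat) : MM := phiC.rangeRestrict (Em c)

theorem prodA_EM (l : List Nat) : prodA EM l = phiC.rangeRestrict (prodA Em l) := by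
  induction l with
  | nil =>
    simp only [prodA_nil, map_one]
  | cons z l ih =>
    rw [prodA_cons, prodA_cons, map_mul, ih]
    rfl

theorem hvalM (l : List Nat) (hl : ∀ z ∈ l, z < ptC.k) (i : Fin ptC.n) :
    (MM.subtype (prodA EM l) i).1 = ptC.val l i.1 := by
  rw [prodA_EM]
  exact hval l hl i

theorem hlabL : ptC.orbRange ts lab lP lW lD repr 0 ptC.n = true := by decide +kernel

theorem ts_lt : ∀ l ∈ ts, ∀ z ∈ l, z < ptC.k := by decide +kernel

theorem ts_fix : ∀ l ∈ ts, ptC.val l 0 = 0 := by decide +kernel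

theorem hlt_lab : allBelow lab 5 7128 = true := by decide +kernel

theorem hsize : ∀ l, l < 5 → countAcc lab l 0 7128 0 = size l := by decide +kernel

theorem y_pow : allN (fun i => Nat.beq (ptC.val (List.replicate 11 0) i) i) 7128 = true := by decide +kernel

theorem prodA_rep (c n : Nat) : prodA EM (List.replicate n c) = EM c ^ n := by
  induction n with
  | zero => simp
  | succ n ih =>
    rw [List.replicate_succ, prodA_cons, ih, pow_succ]

theorem orderOf_EM0 : orderOf (EM 0) = 11 := by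
  haveI : Fact (Nat.Prime 11) := ⟨by norm_num⟩
  apply orderOf_eq_prime
  · rw [← prodA_rep]
    apply Subtype.ext
    ext i
    have h1 := hvalM (List.replicate 11 0) (by
      intro z hz
      rw [List.eq_of_mem_replicate hz]
      decide) i
    have h2 : Nat.beq (ptC.val (List.replicate 11 0) i.1) i.1 = true :=
      allN_spec y_pow i.1 i.2
    rw [Nat.eq_of_beq_eq_true h2] at h1
    exact h1
  · intro h
    have h1 := hvalM [0] (by decide) ⟨0, by decide⟩
    have h2 : prodA EM [0] = EM 0 := by simp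
    rw [h2, h] at h1
    have h3 : ptC.val [0] 0 ≠ 0 := by decide +kernel
    exact h3 h1.symm

theorem hcl : Subgroup.normalClosure ({EM 0} : Set MM) = ⊤ := by
  set N := Subgroup.normalClosure ({EM 0} : Set MM) with hN
  have hm : EM 0 ∈ N := Subgroup.subset_normalClosure rfl
  have hS : N.comap phiC.rangeRestrict = ⊤ := by
    rw [eq_top_iff]
    have h1 := Subgroup.closure_closure_coe_preimage (k := gensE)
    have h2 : (⊤ : Subgroup EE) = Subgroup.closure ((↑) ⁻¹' gensE) := h1.symm
    rw [h2, Subgroup.closure_le]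
    rintro ⟨a, ha⟩ (h | h | h)
    · have h3 : (⟨a, ha⟩ : EE) = Em 0 := Subtype.ext h
      rw [h3]
      exact hm
    · have h3 : (⟨a, ha⟩ : EE) = (⟨zz, zz_memE⟩ : EE) * Em 0 * (⟨zz, zz_memE⟩ : EE)⁻¹ := Subtype.ext h
      rw [h3]
      change phiC.rangeRestrict _ ∈ N
      rw [map_mul, map_mul, map_inv]
      exact (Subgroup.normalClosure_normal).conj_mem _ hm _
    · have h3 : (⟨a, ha⟩ : EE) = xE := Subtype.ext h
      rw [h3]
      have h4 : phiC.rangeRestrict xE = 1 := by
        apply Subtype.ext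
        exact xE_ker
      change phiC.rangeRestrict xE ∈ N
      rw [h4]
      exact N.one_mem
  rw [eq_top_iff]
  intro m _
  obtain ⟨e, rfl⟩ := phiC.rangeRestrict_surjective m
  have : e ∈ N.comap phiC.rangeRestrict := by
    rw [hS]
    trivial
  exact this

theorem card_MM : Nat.card MM = 898128000 := orders.1

instance finiteE : Finite EE := inferInstance

theorem simple_MM : IsSimpleGroup MM := by
  have hnt : Nontrivial MM := by
    rw [← Finite.one_lt_card_iff_nontrivial, card_MM]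
    norm_num
  refine isSimple_of_data' (n := ptC.n) MM.subtype Subtype.val_injective ?_
    (Subgroup.closure ((fun l => prodA EM l) '' {l | l ∈ ts})) ?_ (fun i => lab i.1) ?_ 5
    (fun i => allBelow_spec hlt_lab i.1 i.2) (by decide +kernel) size ?_
    (hnum_of_chk size 4 ptC.n (by decide) (by decide) (by decide +kernel)) 11 1 (by norm_num) (by decide +kernel) (EM 0)
    orderOf_EM0 ?_ hcl
  · intro i
    obtain ⟨g, hg⟩ := htr i
    exact ⟨phiC.rangeRestrict g, hg⟩
  · intro h hh
    induction hh using Subgroup.closure_induction with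
    | mem x hx =>
      obtain ⟨l, hl, rfl⟩ := hx
      apply Fin.ext
      have h1 := hvalM l (ts_lt l hl) 0
      exact h1.trans (ts_fix l hl)
    | one => rfl
    | mul x y _ _ hx hy =>
      change x.1 (y.1 0) = 0
      have h1 : y.1 0 = 0 := hy
      rw [h1]
      exact hx
    | inv x _ hx =>
      change (x.1)⁻¹ 0 = 0
      rw [Equiv.Perm.inv_eq_iff_eq]
      exact (show x.1 0 = 0 from hx).symm
  · intro i j hij
    exact forest_conn2 EM MM.subtype (ts := ts) (fun l hl i => hvalM l (ts_lt l hl) i) hlabL i j hij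
  · intro l hl
    rw [← hsize l hl]
    exact ncard_label lab ptC.n l
  · rw [card_MM]
    have hp : Nat.Prime 11 := by norm_num
    have h3 : 1 ≤ (898128000 : Nat).factorization 11 := (hp.pow_dvd_iff_le_factorization (by norm_num)).1 (by norm_num)
    have h4 : ¬ 1 + 1 ≤ (898128000 : Nat).factorization 11 := fun h5 =>
      absurd ((hp.pow_dvd_iff_le_factorization (by norm_num)).2 h5) (by norm_num)
    omega

/-! ### The theorem -/

/-- The isomorphism of the centraliser and the subgroup. -/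
noncomputable def eCE : CC ≃* EE := MulEquiv.subgroupCongr EE_eq.symm

/-- The map of the centraliser. -/
noncomputable def Phi : CC →* Equiv.Perm (Fin ptC.n) := phiC.comp eCE.toMonoidHom

theorem Phi_range : Phi.range = phiC.range := by
  ext y
  constructor
  · rintro ⟨c, rfl⟩
    exact ⟨eCE c, rfl⟩
  · rintro ⟨e, rfl⟩
    refine ⟨eCE.symm e, ?_⟩
    change phiC (eCE (eCE.symm e)) = _
    rw [eCE.apply_symm_apply]

theorem card_Phi_range : Nat.card Phi.range = 898128000 := by
  rw [Phi_range]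
  exact card_MM

theorem simple_Phi_range : IsSimpleGroup Phi.range := by
  rw [Phi_range]
  exact simple_MM

theorem card_Phi_ker : Nat.card Phi.ker = 3 := by
  have h1 := Subgroup.card_mul_index Phi.ker
  rw [Subgroup.index_ker, card_Phi_range] at h1
  have h2 : Nat.card CC = 2694384000 := by
    rw [← EE_eq]
    exact orders.2.2
  rw [h2] at h1
  exact Nat.eq_of_mul_eq_mul_right (by norm_num : 0 < 898128000) (h1.trans (by norm_num : (2694384000 : ℕ) = 3 * 898128000))

theorem main : Cfsg.IsLy Γ ∧ ∃ x : Γ, orderOf x = 3 ∧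
    Nat.card (Subgroup.center (Subgroup.centralizer ({x} : Set Γ))) = 3 ∧
    Cfsg.IsMcL ((Subgroup.centralizer ({x} : Set Γ)) ⧸ Subgroup.center (Subgroup.centralizer ({x} : Set Γ))) := by
  refine ⟨⟨simple_G, card_G⟩, xh, orderOf_xh, ?_⟩
  obtain ⟨h1, h2, h3⟩ := final_cover xh orderOf_xh Phi 898128000 simple_Phi_range card_Phi_range (by norm_num) card_Phi_ker
  exact ⟨h1, h2, h3⟩

end Cfsg.Agent.Lib.DCE.Ly.Inv3.Xi
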